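import Cfsg.Agent.H597.MeetShift

/-!
# The `2`-part of `|GL_(2m)(q)|`, `m` a power of two (S5760, task 1917)
-/

set_option autoImplicit false

namespace Cfsg.Agent.H597.MeetZ

section num

theorem pow_sub_ne {q j : ℕ} (hq1 : 1 < q) (hj : 0 < j) : q ^ j - 1 ≠ 0 := by
  have := Nat.one_lt_pow hj.ne' hq1
  omega

theorem val_lt {q : ℕ} (hq : Odd q) (hq1 : 1 < q) {b j : ℕ} (hj0 : 0 < j) (hj : j < 2 ^ b) :
    padicValNat 2 (q ^ j - 1) < padicValNat 2 (q ^ 2 ^ b - 1) := by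
  by_contra hcon
  rw [not_lt] at hcon
  have hN0 : q ^ 2 ^ b - 1 ≠ 0 := pow_sub_ne hq1 (by positivity)
  have h1 : 2 ^ padicValNat 2 (q ^ 2 ^ b - 1) ∣ q ^ j - 1 :=
    (padicValNat_dvd_iff_le (pow_sub_ne hq1 hj0)).2 hcon
  have h2 : 2 ^ padicValNat 2 (q ^ 2 ^ b - 1) ∣ q ^ 2 ^ b - 1 := pow_padicValNat_dvd
  have h3 := Nat.dvd_gcd h1 h2
  rw [Nat.pow_sub_one_gcd_pow_sub_one] at h3
  have hb : 1 ≤ b := by
    by_contra hb
    have : b = 0 := by omega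
    subst this
    rw [pow_zero] at hj
    omega
  have h4 : Nat.gcd j (2 ^ b) ∣ 2 ^ (b - 1) := by
    obtain ⟨c, hc, hc'⟩ := (Nat.dvd_prime_pow Nat.prime_two).1 (Nat.gcd_dvd_right j (2 ^ b))
    rw [hc']
    apply pow_dvd_pow
    by_contra hcb
    have hcb' : c = b := by omega
    subst hcb'
    have h5 := Nat.gcd_dvd_left j (2 ^ c)
    rw [hc'] at h5
    exact absurd (Nat.le_of_dvd hj0 h5) (by omega)
  have h5 : 2 ^ padicValNat 2 (q ^ 2 ^ b - 1) ∣ q ^ 2 ^ (b - 1) - 1 := h3.trans (Nat.pow_sub_one_dvd_pow_sub_one _ h4)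
  have h6 : q ^ 2 ^ b - 1 = (q ^ 2 ^ (b - 1) - 1) * (q ^ 2 ^ (b - 1) + 1) := by
    obtain ⟨c, rfl⟩ : ∃ c, b = c + 1 := ⟨b - 1, by omega⟩
    rw [Nat.add_sub_cancel, pow_succ, pow_mul]
    have hx := Nat.sq_sub_sq (q ^ 2 ^ c) 1
    rw [one_pow] at hx
    rw [hx, mul_comm]
  have h7 : 2 ∣ q ^ 2 ^ (b - 1) + 1 := (hq.pow.add_odd odd_one).two_dvd
  have h8 := Nat.mul_dvd_mul h5 h7
  rw [← h6, ← pow_succ] at h8
  exact pow_succ_padicValNat_not_dvd hN0 h8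

theorem val_add {q : ℕ} (hq : Odd q) (hq1 : 1 < q) {b j : ℕ} (hj0 : 0 < j) (hj : j < 2 ^ b) :
    padicValNat 2 (q ^ (2 ^ b + j) - 1) = padicValNat 2 (q ^ j - 1) := by
  have h0 := val_lt hq hq1 hj0 hj
  have hA : q ^ (2 ^ b + j) - 1 = q ^ j * (q ^ 2 ^ b - 1) + (q ^ j - 1) := by
    have h1 : 1 ≤ q ^ j := Nat.one_le_pow _ _ (by omega)
    have h2 : 1 ≤ q ^ 2 ^ b := Nat.one_le_pow _ _ (by omega)
    rw [pow_add, Nat.mul_sub, mul_one, mul_comm (q ^ 2 ^ b)]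
    have h3 : q ^ j ≤ q ^ j * q ^ 2 ^ b := Nat.le_mul_of_pos_right _ (by omega)
    omega
  have hB : 2 ^ (padicValNat 2 (q ^ j - 1) + 1) ∣ q ^ j * (q ^ 2 ^ b - 1) := by
    apply Dvd.dvd.mul_left
    exact (padicValNat_dvd_iff_le (pow_sub_ne hq1 (by positivity))).2 h0
  have hne : q ^ (2 ^ b + j) - 1 ≠ 0 := pow_sub_ne hq1 (by omega)
  apply le_antisymm
  · by_contra hcon
    rw [not_le] at hcon
    have h1 : 2 ^ (padicValNat 2 (q ^ j - 1) + 1) ∣ q ^ (2 ^ b + j) - 1 := (padicValNat_dvd_iff_le hne).2 hcon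
    rw [hA] at h1
    exact pow_succ_padicValNat_not_dvd (pow_sub_ne hq1 hj0) ((Nat.dvd_add_right hB).1 h1)
  · rw [← padicValNat_dvd_iff_le hne, hA]
    exact dvd_add ((pow_dvd_pow 2 (Nat.le_succ _)).trans hB) pow_padicValNat_dvd

theorem val_two {q : ℕ} (hq : Odd q) (hq1 : 1 < q) {b : ℕ} (hb : 1 ≤ b) :
    padicValNat 2 (q ^ (2 ^ b + 2 ^ b) - 1) = padicValNat 2 (q ^ 2 ^ b - 1) + 1 := by
  have h6 : q ^ (2 ^ b + 2 ^ b) - 1 = (q ^ 2 ^ b - 1) * (q ^ 2 ^ b + 1) := by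
    have hx := Nat.sq_sub_sq (q ^ 2 ^ b) 1
    rw [one_pow] at hx
    rw [← two_mul, mul_comm 2, pow_mul, hx, mul_comm]
  rw [h6, padicValNat.mul (pow_sub_ne hq1 (by positivity)) (by omega)]
  congr 1
  -- `q ^ m + 1 = 2 * odd`
  obtain ⟨c, rfl⟩ : ∃ c, b = c + 1 := ⟨b - 1, by omega⟩
  obtain ⟨s, hs⟩ : Odd (q ^ 2 ^ c) := hq.pow
  have h7 : q ^ 2 ^ (c + 1) + 1 = 2 * (2 * (s ^ 2 + s) + 1) := by
    rw [pow_succ, pow_mul, hs]
    ring
  rw [h7, padicValNat.mul (by norm_num) (by omega), padicValNat.self (by norm_num),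
    padicValNat.eq_zero_of_not_dvd (by omega)]

end num

section card

variable {F : Type*} [Field F] [Fintype F]

theorem val_card_GL (hF : Odd (Fintype.card F)) (n : ℕ) :
    padicValNat 2 (Nat.card (GL (Fin n) F)) = ∑ j ∈ Finset.range n, padicValNat 2 (Fintype.card F ^ (j + 1) - 1) := by
  have hq1 : 1 < Fintype.card F := Fintype.one_lt_card
  rw [Matrix.card_GL_field, Finset.prod_range (fun i => Fintype.card F ^ n - Fintype.card F ^ i) |>.symm]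
  rw [← Finset.prod_range_reflect]
  have hne : ∀ i ∈ Finset.range n, Fintype.card F ^ n - Fintype.card F ^ (n - 1 - i) ≠ 0 := by
    intro i hi
    rw [Finset.mem_range] at hi
    have : Fintype.card F ^ (n - 1 - i) < Fintype.card F ^ n := Nat.pow_lt_pow_right hq1 (by omega)
    omega
  rw [← Nat.factorization_def _ Nat.prime_two, Nat.factorization_prod_apply hne]
  refine Finset.sum_congr rfl fun i hi => ?_
  rw [Finset.mem_range] at hi
  have h1 : Fintype.card F ^ n - Fintype.card F ^ (n - 1 - i) =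
      Fintype.card F ^ (n - 1 - i) * (Fintype.card F ^ (i + 1) - 1) := by
    rw [Nat.mul_sub, mul_one, ← pow_add]
    congr 2
    omega
  rw [Nat.factorization_def _ Nat.prime_two, h1, padicValNat.mul (pow_ne_zero _ (by omega)) (pow_sub_ne hq1 (by omega)),
    padicValNat.eq_zero_of_not_dvd, zero_add]
  intro h2
  exact (Nat.not_even_iff_odd.2 (hF.pow (n := n - 1 - i))) (even_iff_two_dvd.2 h2)

theorem val_card_GL_double (hF : Odd (Fintype.card F)) {b : ℕ} (hb : 1 ≤ b) :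
    padicValNat 2 (Nat.card (GL (Fin (2 ^ b + 2 ^ b)) F)) = 2 * padicValNat 2 (Nat.card (GL (Fin (2 ^ b)) F)) + 1 := by
  have hq1 : 1 < Fintype.card F := Fintype.one_lt_card
  rw [val_card_GL hF, val_card_GL hF, Finset.sum_range_add]
  obtain ⟨m, hm⟩ : ∃ m, 2 ^ b = m + 1 := ⟨2 ^ b - 1, by have := Nat.one_le_two_pow (n := b); omega⟩
  have h1 : ∑ x ∈ Finset.range (2 ^ b), padicValNat 2 (Fintype.card F ^ (2 ^ b + x + 1) - 1) =
      ∑ x ∈ Finset.range (2 ^ b), padicValNat 2 (Fintype.card F ^ (x + 1) - 1) + 1 := by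
    have h2 := val_two hF hq1 hb
    have h3 : ∀ j, 0 < j → j < 2 ^ b → _ := fun j h h' => val_add hF hq1 h h'
    generalize 2 ^ b = M at *
    subst hm
    rw [Finset.sum_range_succ, Finset.sum_range_succ, show m + 1 + m + 1 = m + 1 + (m + 1) by ring, h2, ← add_assoc]
    congr 2
    refine Finset.sum_congr rfl fun i hi => ?_
    rw [Finset.mem_range] at hi
    exact h3 (i + 1) (by omega) (by omega)
  rw [h1]
  ring

end card

end Cfsg.Agent.H597.MeetZ
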