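import Cfsg.Agent.H597.MeetNum
import Cfsg.Agent.H597.MeetPSL2

/-!
# `MeetIn 2` for `PSL_n(q)`, `q` odd, `n` a power of two (S5760, task 1917)
-/

set_option autoImplicit false

namespace Cfsg.Agent.H597.MeetZ

open Subgroup Cfsg.Agent.H68.MeetB Matrix

section blk

variable {ι : Type*} [Fintype ι] [DecidableEq ι] {F : Type*} [Field F]

/-- the matrices commuting with `Z` up to sign -/
def signCent (Z : GL ι F) : Subgroup (GL ι F) where
  carrier := {g | (g : Matrix ι ι F) * Z = (Z : Matrix ι ι F) * g ∨ (g : Matrix ι ι F) * Z = -((Z : Matrix ι ι F) * g)}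
  one_mem' := Or.inl (by rw [Units.val_one, one_mul, mul_one])
  mul_mem' {a b} ha hb := by
    rw [Set.mem_ofPred_eq, Units.val_mul]
    rcases ha with ha | ha <;> rcases hb with hb | hb
    · left; rw [mul_assoc, hb, ← mul_assoc, ha, mul_assoc]
    · right; rw [mul_assoc, hb, mul_neg, ← mul_assoc, ha, mul_assoc]
    · right; rw [mul_assoc, hb, ← mul_assoc, ha, neg_mul, mul_assoc]
    · left; rw [mul_assoc, hb, mul_neg, ← mul_assoc, ha, neg_mul, neg_neg, mul_assoc]
  inv_mem' {a} ha := by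
    have h1 : (a : Matrix ι ι F) * ((a⁻¹ : GL ι F) : Matrix ι ι F) = 1 := by rw [← Units.val_mul, mul_inv_cancel, Units.val_one]
    have h2 : ((a⁻¹ : GL ι F) : Matrix ι ι F) * (a : Matrix ι ι F) = 1 := by rw [← Units.val_mul, inv_mul_cancel, Units.val_one]
    rcases ha with ha | ha
    · left
      calc ((a⁻¹ : GL ι F) : Matrix ι ι F) * Z = ((a⁻¹ : GL ι F) : Matrix ι ι F) * (Z * a) * ((a⁻¹ : GL ι F) : Matrix ι ι F) := by
            rw [mul_assoc, mul_assoc, h1, mul_one]
        _ = ((a⁻¹ : GL ι F) : Matrix ι ι F) * a * (Z * ((a⁻¹ : GL ι F) : Matrix ι ι F)) := by rw [← ha]; simp only [mul_assoc]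
        _ = _ := by rw [h2, one_mul]
    · right
      calc ((a⁻¹ : GL ι F) : Matrix ι ι F) * Z = ((a⁻¹ : GL ι F) : Matrix ι ι F) * (Z * a) * ((a⁻¹ : GL ι F) : Matrix ι ι F) := by
            rw [mul_assoc, mul_assoc, h1, mul_one]
        _ = ((a⁻¹ : GL ι F) : Matrix ι ι F) * (-(a * Z)) * ((a⁻¹ : GL ι F) : Matrix ι ι F) := by rw [ha, neg_neg]
        _ = -(((a⁻¹ : GL ι F) : Matrix ι ι F) * a * (Z * ((a⁻¹ : GL ι F) : Matrix ι ι F))) := by
            rw [mul_neg, neg_mul]; simp only [mul_assoc]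
        _ = _ := by rw [h2, one_mul]

theorem mem_signCent {Z g : GL ι F} : g ∈ signCent Z ↔ (g : Matrix ι ι F) * Z = (Z : Matrix ι ι F) * g ∨
    (g : Matrix ι ι F) * Z = -((Z : Matrix ι ι F) * g) := Iff.rfl

/-- the centraliser has index two -/
theorem card_signCent [Finite F] (h2 : (2 : F) ≠ 0) {Z s : GL ι F} [Nonempty ι]
    (hs : (s : Matrix ι ι F) * Z = -((Z : Matrix ι ι F) * s)) :
    2 * Nat.card (centralizer {Z} : Subgroup (GL ι F)) = Nat.card (signCent Z) := by
  have hle : centralizer {Z} ≤ signCent Z := by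
    intro g hg
    left
    rw [← Units.val_mul, ← Units.val_mul]
    exact congrArg _ (mem_centralizer_singleton_iff.1 hg)
  have h1 : (centralizer {Z} : Subgroup (GL ι F)).relIndex (signCent Z) = 2 := by
    rw [relIndex_eq_two_iff]
    have hneg : ∀ g : GL ι F, (g : Matrix ι ι F) * Z = (Z : Matrix ι ι F) * g →
        (g : Matrix ι ι F) * Z = -((Z : Matrix ι ι F) * g) → False := by
      intro g ha hb
      rw [ha] at hb
      have h3 : (2 : F) • ((Z : Matrix ι ι F) * g) = 0 := by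
        rw [two_smul]
        nth_rw 2 [hb]
        rw [add_neg_cancel]
      rcases smul_eq_zero.1 h3 with h3 | h3
      · exact h2 h3
      · rw [← Units.val_mul] at h3
        exact Units.ne_zero (Z * g) h3
    have hmem : ∀ g : GL ι F, g ∈ (centralizer {Z} : Subgroup (GL ι F)) ↔
        (g : Matrix ι ι F) * Z = (Z : Matrix ι ι F) * g := by
      intro g
      rw [mem_centralizer_singleton_iff, ← Units.val_mul, ← Units.val_mul]
      exact ⟨fun h => congrArg _ h, fun h => Units.ext h⟩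
    refine ⟨s, Or.inr hs, fun g hg => ?_⟩
    rw [hmem, hmem, Units.val_mul]
    rcases hg with hg | hg
    · right
      refine ⟨hg, fun h => ?_⟩
      apply hneg (g * s)
      · rw [Units.val_mul]; exact h
      · rw [Units.val_mul, mul_assoc, hs, mul_neg, ← mul_assoc, hg, mul_assoc]
    · left
      refine ⟨?_, fun h => hneg g h hg⟩
      rw [mul_assoc, hs, mul_neg, ← mul_assoc, hg, neg_mul, neg_neg, mul_assoc]
  have h3 := relIndex_mul_relIndex ⊥ _ _ bot_le hle
  rw [relIndex_bot_left, relIndex_bot_left, h1] at h3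
  rw [← h3, mul_comm]

/-- the block diagonal embedding -/
def blk (α β : Type*) [Fintype α] [DecidableEq α] [Fintype β] [DecidableEq β] (F : Type*) [Field F] :
    GL α F × GL β F →* GL (α ⊕ β) F where
  toFun g := ⟨fromBlocks g.1 0 0 g.2, fromBlocks ((g.1⁻¹ : GL α F) : Matrix α α F) 0 0 ((g.2⁻¹ : GL β F) : Matrix β β F), by
    rw [fromBlocks_multiply]
    simp, by
    rw [fromBlocks_multiply]
    simp⟩
  map_one' := by
    apply Units.ext
    simp
  map_mul' a b := by
    apply Units.ext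
    simp [fromBlocks_multiply]

theorem blk_coe {α β : Type*} [Fintype α] [DecidableEq α] [Fintype β] [DecidableEq β] (g : GL α F × GL β F) :
    ((blk α β F g : GL (α ⊕ β) F) : Matrix (α ⊕ β) (α ⊕ β) F) = fromBlocks g.1 0 0 g.2 := rfl

theorem blk_injective {α β : Type*} [Fintype α] [DecidableEq α] [Fintype β] [DecidableEq β] :
    Function.Injective (blk α β F) := by
  intro g h hgh
  have h1 : fromBlocks (g.1 : Matrix α α F) 0 0 (g.2 : Matrix β β F) =
      fromBlocks (h.1 : Matrix α α F) 0 0 (h.2 : Matrix β β F) := by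
    rw [← blk_coe, ← blk_coe, hgh]
  rw [fromBlocks_inj] at h1
  exact Prod.ext (Units.ext h1.1) (Units.ext h1.2.2.2)

/-- the involution `diag(1, -1)` -/
def zz (α : Type*) [Fintype α] [DecidableEq α] (F : Type*) [Field F] : GL (α ⊕ α) F :=
  blk α α F (1, -1)

/-- the swap -/
def sw (α : Type*) [Fintype α] [DecidableEq α] (F : Type*) [Field F] : GL (α ⊕ α) F :=
  ⟨fromBlocks 0 1 1 0, fromBlocks 0 1 1 0, by rw [fromBlocks_multiply]; simp, by rw [fromBlocks_multiply]; simp⟩

theorem zz_coe {α : Type*} [Fintype α] [DecidableEq α] :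
    ((zz α F : GL (α ⊕ α) F) : Matrix (α ⊕ α) (α ⊕ α) F) = fromBlocks 1 0 0 (-1) := by
  rw [zz, blk_coe, Units.val_one, Units.val_neg, Units.val_one]

theorem sw_coe {α : Type*} [Fintype α] [DecidableEq α] :
    ((sw α F : GL (α ⊕ α) F) : Matrix (α ⊕ α) (α ⊕ α) F) = fromBlocks 0 1 1 0 := rfl

theorem sq_dvd {α : Type*} [Fintype α] [DecidableEq α] [Finite F] :
    Nat.card (GL α F) * Nat.card (GL α F) ∣ Nat.card (centralizer {zz α F} : Subgroup (GL (α ⊕ α) F)) := by
  rw [← Nat.card_prod, Nat.card_congr (MonoidHom.ofInjective (blk_injective (α := α) (β := α) (F := F))).toEquiv]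
  apply card_dvd_of_le
  rintro _ ⟨g, rfl⟩
  rw [mem_centralizer_singleton_iff]
  apply Units.ext
  rw [Units.val_mul, Units.val_mul, blk_coe, zz_coe, fromBlocks_multiply, fromBlocks_multiply]
  simp

/-- **odd index in `GL`** -/
theorem odd_index [Fintype F] (hF : Odd (Fintype.card F)) {b : ℕ} (hb : 1 ≤ b) :
    ¬ 2 ∣ (signCent (zz (Fin (2 ^ b)) F)).index := by
  have h2 := two_ne_zero_of_odd hF
  have hs : ((sw (Fin (2 ^ b)) F : GL _ F) : Matrix (Fin (2 ^ b) ⊕ Fin (2 ^ b)) (Fin (2 ^ b) ⊕ Fin (2 ^ b)) F) *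
        ((zz (Fin (2 ^ b)) F : GL _ F) : Matrix (Fin (2 ^ b) ⊕ Fin (2 ^ b)) (Fin (2 ^ b) ⊕ Fin (2 ^ b)) F) =
      -(((zz (Fin (2 ^ b)) F : GL _ F) : Matrix (Fin (2 ^ b) ⊕ Fin (2 ^ b)) (Fin (2 ^ b) ⊕ Fin (2 ^ b)) F) *
        ((sw (Fin (2 ^ b)) F : GL _ F) : Matrix (Fin (2 ^ b) ⊕ Fin (2 ^ b)) (Fin (2 ^ b) ⊕ Fin (2 ^ b)) F)) := by
    rw [zz_coe, sw_coe, fromBlocks_multiply, fromBlocks_multiply, fromBlocks_neg]
    simp
  have : Nonempty (Fin (2 ^ b) ⊕ Fin (2 ^ b)) := ⟨Sum.inl ⟨0, by positivity⟩⟩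
  have h3 := card_signCent h2 hs
  obtain ⟨k, hk⟩ := sq_dvd (α := Fin (2 ^ b)) (F := F)
  have h4 := (signCent (zz (Fin (2 ^ b)) F)).card_mul_index
  have h5 : Nat.card (GL (Fin (2 ^ b) ⊕ Fin (2 ^ b)) F) = Nat.card (GL (Fin (2 ^ b + 2 ^ b)) F) :=
    Nat.card_congr (Units.mapEquiv (Matrix.reindexAlgEquiv F F finSumFinEquiv).toMulEquiv).toEquiv
  have h6 := val_card_GL_double hF hb
  rw [← h5, ← h4, ← h3, hk] at h6
  have hG : Nat.card (GL (Fin (2 ^ b)) F) ≠ 0 := Nat.card_pos.ne'
  have hk0 : k ≠ 0 := by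
    rintro rfl
    rw [mul_zero] at hk
    exact Nat.card_pos.ne' hk
  have hi0 : (signCent (zz (Fin (2 ^ b)) F)).index ≠ 0 := index_ne_zero_of_finite
  rw [padicValNat.mul (by positivity) hi0, padicValNat.mul (by norm_num) (by positivity),
    padicValNat.mul (by positivity) hk0, padicValNat.mul hG hG, padicValNat.self (by norm_num)] at h6
  intro h7
  have h8 := one_le_padicValNat_of_dvd hi0 h7
  omega

end blk

section psl

theorem relIndex_dvd {G : Type*} [Group G] [Finite G] (W N : Subgroup G) [N.Normal] : W.relIndex N ∣ W.index := by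
  have h1 : W.relIndex N * N.index = N.relIndex W * W.index := by
    rw [← inf_relIndex_right, relIndex_mul_index inf_le_right, ← inf_relIndex_left, relIndex_mul_index inf_le_left]
  obtain ⟨k, hk⟩ := relIndex_dvd_index_of_normal N W
  have h0 : N.relIndex W ≠ 0 := by
    have := index_ne_zero_of_finite (H := N)
    rw [hk] at this
    exact left_ne_zero_of_mul this
  rw [hk] at h1
  refine ⟨k, mul_left_cancel₀ h0 ?_⟩
  rw [← h1]
  ring

variable {ι : Type*} [Fintype ι] [DecidableEq ι] {F : Type*} [Field F]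

theorem range_normal : (SpecialLinearGroup.toGL : SpecialLinearGroup ι F →* GL ι F).range.Normal := by
  constructor
  rintro _ ⟨a, rfl⟩ g
  refine ⟨⟨(g : Matrix ι ι F) * mt a * ((g⁻¹ : GL ι F) : Matrix ι ι F), ?_⟩, ?_⟩
  · have h1 : (g : Matrix ι ι F).det * ((g⁻¹ : GL ι F) : Matrix ι ι F).det = 1 := by
      rw [← det_mul, ← Units.val_mul, mul_inv_cancel, Units.val_one, det_one]
    rw [det_mul, det_mul, mt_det, mul_one, h1]
  · apply Units.ext
    rfl

/-- the interleaving -/
theorem exists_equiv (m : ℕ) : ∃ e : Fin m ⊕ Fin m ≃ Fin (2 * m), ∀ x y, (e x : ℕ) = e y + 1 →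
    Sum.elim (1 : Fin m → F) (-1) x = -Sum.elim (1 : Fin m → F) (-1) y := by
  let f : Fin m ⊕ Fin m → Fin (2 * m) := Sum.elim (fun i => ⟨2 * i, by omega⟩) (fun i => ⟨2 * i + 1, by omega⟩)
  have hf : Function.Bijective f := by
    rw [Fintype.bijective_iff_injective_and_card]
    constructor
    · rintro (x | x) (y | y) hxy
      · have h1 : 2 * (x : ℕ) = 2 * y := congrArg Fin.val hxy
        congr 1
        apply Fin.ext
        omega
      · have h1 : 2 * (x : ℕ) = 2 * y + 1 := congrArg Fin.val hxy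
        omega
      · have h1 : 2 * (x : ℕ) + 1 = 2 * y := congrArg Fin.val hxy
        omega
      · have h1 : 2 * (x : ℕ) + 1 = 2 * y + 1 := congrArg Fin.val hxy
        congr 1
        apply Fin.ext
        omega
    · rw [Fintype.card_sum, Fintype.card_fin, Fintype.card_fin]
      ring
  refine ⟨Equiv.ofBijective f hf, ?_⟩
  rintro (x | x) (y | y) hxy
  · have h1 : 2 * (x : ℕ) = 2 * y + 1 := hxy
    omega
  · simp
  · simp
  · have h1 : 2 * (x : ℕ) + 1 = 2 * y + 1 + 1 := hxy
    omega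

theorem meet_sum [Fintype F] (hF : Odd (Fintype.card F)) {b : ℕ} (hb : 1 ≤ b) :
    MeetIn 2 (ProjectiveSpecialLinearGroup (Fin (2 ^ b) ⊕ Fin (2 ^ b)) F) := by
  obtain ⟨e, he⟩ := exists_equiv (F := F) (2 ^ b)
  have hdiag : (fromBlocks 1 0 0 (-1) : Matrix (Fin (2 ^ b) ⊕ Fin (2 ^ b)) (Fin (2 ^ b) ⊕ Fin (2 ^ b)) F) =
      diagonal (Sum.elim 1 (-1)) := by
    rw [← fromBlocks_diagonal]
    congr 1
    ext i j
    rw [← diagonal_one, diagonal_neg]
    rfl
  have hev : Even (2 ^ b) := (even_two).pow_of_ne_zero (by omega)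
  let z : SpecialLinearGroup (Fin (2 ^ b) ⊕ Fin (2 ^ b)) F := ⟨fromBlocks 1 0 0 (-1), by
    rw [det_fromBlocks_zero₂₁, det_one, one_mul, det_neg, det_one, mul_one, Fintype.card_fin, hev.neg_one_pow]⟩
  have hz : mt z = fromBlocks 1 0 0 (-1) := rfl
  have hzd : mt z = diagonal (Sum.elim 1 (-1)) := hz.trans hdiag
  have hzz : mt (z * z) = (1 : F) • (1 : Matrix _ _ F) := by
    rw [mt_mul, hz, fromBlocks_multiply]
    simp
  have hidx := odd_index (F := F) hF hb
  set W := signCent (zz (Fin (2 ^ b)) F) with hW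
  have hnorm := range_normal (ι := Fin (2 ^ b) ⊕ Fin (2 ^ b)) (F := F)
  refine meet_of_diag hF e (by positivity) he hzd (mk_eq_one hzz)
    (H := (W.comap SpecialLinearGroup.toGL).map (QuotientGroup.mk' _)) ?_ ?_
  · intro h1
    have h2 := h1.trans (index_map_dvd (H := W.comap SpecialLinearGroup.toGL) (QuotientGroup.mk'_surjective _))
    rw [index_comap] at h2
    exact hidx (h2.trans (relIndex_dvd _ _))
  · rintro _ ⟨g, hg, rfl⟩
    have hg1 : mt g * mt z = mt z * mt g ∨ mt g * mt z = -(mt z * mt g) := hg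
    change (QuotientGroup.mk z : ProjectiveSpecialLinearGroup _ F) * QuotientGroup.mk g = QuotientGroup.mk g * QuotientGroup.mk z
    rw [← QuotientGroup.mk_mul, ← QuotientGroup.mk_mul]
    rcases hg1 with h1 | h1
    · congr 1
      apply Subtype.ext
      exact h1.symm
    · have h2 : (QuotientGroup.mk ((z * g)⁻¹ * (g * z)) : ProjectiveSpecialLinearGroup (Fin (2 ^ b) ⊕ Fin (2 ^ b)) F) = 1 := by
        apply mk_eq_one (c := -1)
        rw [mt_mul, mt_mul g z, h1, mul_neg, ← mt_mul z g, mt_inv_mul, neg_smul, one_smul]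
      rw [QuotientGroup.mk_mul, QuotientGroup.mk_inv, inv_mul_eq_one] at h2
      exact h2

/-- **`PSL_n(q)`, `q` odd, `n` a power of two** -/
theorem meet2_PSL_two_pow [Fintype F] (h : Odd (Fintype.card F)) (h4 : 4 ≤ Fintype.card F) (a : ℕ) :
    MeetIn 2 (ProjectiveSpecialLinearGroup (Fin (2 ^ a)) F) := by
  rcases Nat.lt_or_ge a 2 with ha | ha
  · rcases Nat.eq_zero_or_pos a with h0 | h0
    · subst h0
      have hs : Subsingleton (ProjectiveSpecialLinearGroup (Fin (2 ^ 0)) F) := by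
        constructor
        intro x y
        obtain ⟨x, rfl⟩ := QuotientGroup.mk_surjective x
        obtain ⟨y, rfl⟩ := QuotientGroup.mk_surjective y
        congr 1
        apply Subtype.ext
        have : Unique (Fin (2 ^ 0)) := inferInstanceAs (Unique (Fin 1))
        have hx := mt_det x
        have hy := mt_det y
        rw [det_unique] at hx hy
        ext i j
        obtain rfl : i = this.default := Subsingleton.elim _ _
        obtain rfl : j = this.default := Subsingleton.elim _ _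
        exact hx.trans hy.symm
      intro R _
      exact ⟨1, fun y _ _ => Subsingleton.elim _ _⟩
    · obtain rfl : a = 1 := by omega
      exact meet2_PSL2 h h4
  · obtain ⟨b, rfl⟩ : ∃ b, a = b + 1 := ⟨a - 1, by omega⟩
    have h1 := meet_sum (F := F) h (b := b) (by omega)
    have e : Fin (2 ^ b) ⊕ Fin (2 ^ b) ≃ Fin (2 ^ (b + 1)) := finSumFinEquiv.trans (finCongr (by ring))
    exact MeetIn.congr (pslEquiv e) h1

/-- **`PSL_4(q)`, `q` odd** -/
theorem meet2_PSL4 [Fintype F] (h : Odd (Fintype.card F)) :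
    MeetIn 2 (ProjectiveSpecialLinearGroup (Fin 4) F) := by
  have h1 := meet_sum (F := F) h (b := 1) le_rfl
  have e : Fin (2 ^ 1) ⊕ Fin (2 ^ 1) ≃ Fin 4 := finSumFinEquiv.trans (finCongr (by norm_num))
  exact MeetIn.congr (pslEquiv e) h1

end psl

end Cfsg.Agent.H597.MeetZ
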